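import Cfsg.Agent.Lib.Helper70.J1O.Tk1
import Cfsg.Agent.Lib.Helper11.SimpleOrder
import Cfsg.Agent.S4304

set_option autoImplicit false
set_option linter.unusedSectionVars false

namespace Cfsg.Agent.Lib.Helper70.J1O

universe u

variable {X : Type u} [Group X] [Finite X]

theorem not_cyc (hna : ¬ ∀ a b : X, a * b = b * a) : ¬ IsCyclic X := by
  intro h
  exact hna (fun a b => h.isMulCommutative.is_comm.comm a b)

/-- T2 -/
theorem nsyl_ge [IsSimpleGroup X] (hna : ¬ ∀ a b : X, a * b = b * a) (h19 : 19 ∣ Nat.card X)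
    (p : ℕ) [Fact p.Prime] (hp : p ∣ Nat.card X) : 19 ≤ Nat.card (Sylow p X) := by
  obtain ⟨P⟩ : Nonempty (Sylow p X) := inferInstance
  have h1 := Cfsg.Agent.Lib.Helper11.normalizer_sylow_ne_top (not_cyc hna) p hp P
  have h2 := Cfsg.Agent.Lib.Helper11.two_mul_card_dvd_factorial (not_cyc hna) _ h1
  have he : (Subgroup.normalizer ((P : Subgroup X) : Set X)).index = Nat.card (Sylow p X) :=
    (Sylow.card_eq_index_normalizer P).symm
  rw [he] at h2
  have h3 : 19 ∣ (Nat.card (Sylow p X)).factorial :=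
    dvd_trans (dvd_trans h19 (Dvd.intro_left 2 rfl)) h2
  exact (Nat.Prime.dvd_factorial (by norm_num)).mp h3

/-- T3 -/
theorem burnside [IsSimpleGroup X] (hna : ¬ ∀ a b : X, a * b = b * a) (p : ℕ) [Fact p.Prime]
    (P : Sylow p X) (hP : Nat.card P = p) : ∃ e, 1 < e ∧ e ∣ p - 1 ∧ nN P = e * nC P := by
  have hp : p.Prime := Fact.out
  have hpX : p ∣ Nat.card X := by
    rw [← hP]; exact Subgroup.card_subgroup_dvd_card _
  have hCN : Subgroup.centralizer ((P : Subgroup X) : Set X) ≤ Subgroup.normalizer ((P : Subgroup X) : Set X) :=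
    Subgroup.centralizer_le_normalizer _
  refine ⟨(Subgroup.centralizer ((P : Subgroup X) : Set X)).relIndex
    (Subgroup.normalizer ((P : Subgroup X) : Set X)), ?_, ?_, ?_⟩
  · have h0 : (Subgroup.centralizer ((P : Subgroup X) : Set X)).relIndex
        (Subgroup.normalizer ((P : Subgroup X) : Set X)) ≠ 0 := by
      rw [Subgroup.relIndex]; exact Subgroup.index_ne_zero_of_finite
    have h1 : (Subgroup.centralizer ((P : Subgroup X) : Set X)).relIndex
        (Subgroup.normalizer ((P : Subgroup X) : Set X)) ≠ 1 := by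
      intro h
      exact Cfsg.Agent.Lib.Helper11.not_normalizer_le_centralizer (not_cyc hna) p hpX P
        (Subgroup.relIndex_eq_one.mp h)
    omega
  · have := Cfsg.Agent.S4304.relIndex_centralizer_normalizer_dvd (P : Subgroup X) (isCyclic_of_prime_card hP)
    rw [hP, Nat.totient_prime hp] at this
    exact this
  · have h1 := Subgroup.relIndex_mul_relIndex ⊥ _ _ bot_le hCN
    rw [Subgroup.relIndex_bot_left, Subgroup.relIndex_bot_left] at h1
    rw [nN, nC, ← h1, mul_comm]

/-- T4 -/
theorem cross (p q : ℕ) [Fact p.Prime] [Fact q.Prime] (P : Sylow p X) (Q : Sylow q X)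
    (hP : Nat.card P = p) (hQ : Nat.card Q = q) (hq : q ∣ nN P) (hqp : ¬ q ∣ p - 1) (hne : p ≠ q) :
    p ∣ nC Q := by
  have hp : p.Prime := Fact.out
  have hqq : q.Prime := Fact.out
  have hCN : Subgroup.centralizer ((P : Subgroup X) : Set X) ≤ Subgroup.normalizer ((P : Subgroup X) : Set X) :=
    Subgroup.centralizer_le_normalizer _
  have hrel := Cfsg.Agent.S4304.relIndex_centralizer_normalizer_dvd (P : Subgroup X) (isCyclic_of_prime_card hP)
  rw [hP, Nat.totient_prime hp] at hrel
  have h1 := Subgroup.relIndex_mul_relIndex ⊥ _ _ bot_le hCN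
  rw [Subgroup.relIndex_bot_left, Subgroup.relIndex_bot_left] at h1
  -- q divides |C(P)|
  have hqC : q ∣ nC P := by
    rw [nN, ← h1] at hq
    rcases (Nat.Prime.dvd_mul hqq).mp hq with h | h
    · exact h
    · exact absurd (dvd_trans h hrel) hqp
  obtain ⟨y, hy⟩ := exists_prime_orderOf_dvd_card' (G := Subgroup.centralizer ((P : Subgroup X) : Set X)) q hqC
  -- zpowers y is a q-subgroup, contained in a Sylow q Q'
  have hyo : orderOf (y : X) = q := by rw [Subgroup.orderOf_coe]; exact hy
  have hpg : IsPGroup q (Subgroup.zpowers (y : X)) := by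
    apply IsPGroup.of_card (n := 1)
    rw [Nat.card_zpowers, hyo, pow_one]
  obtain ⟨Q', hQ'⟩ := hpg.exists_le_sylow
  have hQ'c : Nat.card Q' = q := by
    have e1 := Sylow.card_eq_multiplicity Q'
    have e2 := Sylow.card_eq_multiplicity Q
    exact e1.trans (e2.symm.trans hQ)
  have hQ'eq : (Q' : Subgroup X) = Subgroup.zpowers (y : X) := by
    symm
    apply Subgroup.eq_of_le_of_card_ge hQ'
    rw [Nat.card_zpowers, hyo, hQ'c]
  have hPle : (P : Subgroup X) ≤ Subgroup.centralizer ((Q' : Subgroup X) : Set X) := by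
    rw [hQ'eq]
    intro x hx
    rw [Subgroup.mem_centralizer_iff]
    intro z hz
    obtain ⟨k, rfl⟩ := Subgroup.mem_zpowers_iff.mp hz
    have hyx : (y : X) * x = x * (y : X) := ((Subgroup.mem_centralizer_iff.mp y.2) x hx).symm
    exact ((Commute.zpow_left (show Commute (y : X) x from hyx) k)).eq
  have := Subgroup.card_dvd_of_le hPle
  rw [hP] at this
  rw [(nN_eq q Q Q').2]
  exact this

end Cfsg.Agent.Lib.Helper70.J1O
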