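import Cfsg.Agent.Lib.Helper70.J1O.Tk1
import Cfsg.Agent.Lib.Helper70.J1O.Tk2
import Cfsg.Agent.Lib.Helper13.J1OArith

set_option autoImplicit false

namespace Cfsg.Agent.Lib.Helper70.J1O

universe u

variable {X : Type u} [Group X] [Finite X]

/-- CE5 -/
theorem ce5 [IsSimpleGroup X] (hna : ¬ ∀ a b : X, a * b = b * a) (hc : Nat.card X = 87780)
    (P19 : Sylow 19 X) (P11 : Sylow 11 X) (P5 : Sylow 5 X) (h19 : ¬ 5 ∣ nC P19) (h11 : ¬ 5 ∣ nC P11) :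
    Nat.card (Sylow 5 X) = 2926 ∧ nC P5 = 15 := by
  have c5 : Nat.card P5 = 5 := card_syl 5 P5 (by rw [hc]; norm_num) (by rw [hc]; norm_num)
  have c19 : Nat.card P19 = 19 := card_syl 19 P19 (by rw [hc]; norm_num) (by rw [hc]; norm_num)
  have c11 : Nat.card P11 = 11 := card_syl 11 P11 (by rw [hc]; norm_num) (by rw [hc]; norm_num)
  obtain ⟨d1, d2, d3, d4⟩ := syl_data 5 P5 c5
  rw [hc] at d2
  have g := nsyl_ge hna (by rw [hc]; norm_num) 5 (by rw [hc]; norm_num)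
  obtain ⟨e, e1, e2, e3⟩ := burnside hna 5 P5 c5
  have a19 : ¬ 19 ∣ nN P5 := fun h => h19 (cross 5 19 P5 P19 c5 c19 h (by norm_num) (by norm_num))
  have a11 : ¬ 11 ∣ nN P5 := fun h => h11 (cross 5 11 P5 P11 c5 c11 h (by norm_num) (by norm_num))
  exact Cfsg.Agent.Lib.Helper13.J1O.ce5_arith _ _ _ e d1 d2 d3 g e1 e2 e3 a19 a11

end Cfsg.Agent.Lib.Helper70.J1O
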