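import Cfsg.Agent.Lib.Helper70.J1O.Defs

set_option autoImplicit false
set_option linter.unusedSectionVars false

namespace Cfsg.Agent.Lib.Helper70.J1O

universe u

variable {X : Type u} [Group X] [Finite X]

/-- T0 -/
theorem card_syl (p : ℕ) [Fact p.Prime] (P : Sylow p X) (h1 : p ∣ Nat.card X) (h2 : ¬ p ^ 2 ∣ Nat.card X) :
    Nat.card P = p := by
  have hp : p.Prime := Fact.out
  rw [Sylow.card_eq_multiplicity]
  have hne : Nat.card X ≠ 0 := Nat.card_pos.ne'
  have hf1 : 1 ≤ (Nat.card X).factorization p :=
    (hp.dvd_iff_one_le_factorization hne).mp h1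
  have hf2 : ¬ 2 ≤ (Nat.card X).factorization p := by
    intro h
    exact h2 ((hp.pow_dvd_iff_le_factorization hne).mpr h)
  have : (Nat.card X).factorization p = 1 := by omega
  rw [this, pow_one]

/-- T1 -/
theorem syl_data (p : ℕ) [Fact p.Prime] (P : Sylow p X) (hP : Nat.card P = p) :
    Nat.card (Sylow p X) % p = 1 ∧ Nat.card (Sylow p X) * nN P = Nat.card X ∧ p ∣ nC P ∧ nC P ∣ nN P := by
  have hp : p.Prime := Fact.out
  refine ⟨?_, ?_, ?_, ?_⟩
  · have := card_sylow_modEq_one p X
    rw [Nat.ModEq, Nat.mod_eq_of_lt hp.one_lt] at this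
    exact this
  · rw [Sylow.card_eq_index_normalizer P, nN, mul_comm]
    exact Subgroup.card_mul_index _
  · have hcyc : IsCyclic (P : Subgroup X) := isCyclic_of_prime_card hP
    have hle : (P : Subgroup X) ≤ Subgroup.centralizer ((P : Subgroup X) : Set X) := by
      intro x hx
      rw [Subgroup.mem_centralizer_iff]
      intro y hy
      have := hcyc.isMulCommutative.is_comm.comm ⟨y, hy⟩ ⟨x, hx⟩
      exact congrArg Subtype.val this
    have := Subgroup.card_dvd_of_le hle
    rw [hP] at this
    exact this
  · exact Subgroup.card_dvd_of_le (Subgroup.centralizer_le_normalizer _)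

/-- T9 -/
theorem nN_eq (p : ℕ) [Fact p.Prime] (P Q : Sylow p X) : nN P = nN Q ∧ nC P = nC Q := by
  obtain ⟨g, hg⟩ := MulAction.exists_smul_eq X P Q
  have hQ : (Q : Subgroup X) = (P : Subgroup X).map (MulAut.conj g).toMonoidHom := by
    rw [← hg]; rfl
  constructor
  · unfold nN
    have : Subgroup.normalizer ((Q : Subgroup X) : Set X) =
        (Subgroup.normalizer ((P : Subgroup X) : Set X)).map (MulAut.conj g).toMonoidHom := by
      rw [hQ]
      ext x
      simp only [Subgroup.mem_normalizer_iff, Subgroup.mem_map, MulEquiv.coe_toMonoidHom, MulAut.conj_apply]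
      constructor
      · intro h
        refine ⟨g⁻¹ * x * g, ?_, by group⟩
        intro y
        have := h (g * y * g⁻¹)
        constructor
        · intro hy
          obtain ⟨w, hw, hwe⟩ := this.1 ⟨y, hy, rfl⟩
          have : g⁻¹ * x * g * y * (g⁻¹ * x * g)⁻¹ = w := by
            have e : w = g⁻¹ * (g * w * g⁻¹) * g := by group
            rw [e, hwe]; group
          rw [this]; exact hw
        · intro hy
          obtain ⟨w, hw, hwe⟩ := this.2 ⟨_, hy, by group⟩
          have : y = w := by
            have e : w = g⁻¹ * (g * w * g⁻¹) * g := by group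
            rw [e, hwe]; group
          rw [this]; exact hw
      · rintro ⟨n, hn, rfl⟩ y
        constructor
        · rintro ⟨w, hw, rfl⟩
          exact ⟨n * w * n⁻¹, (hn w).1 hw, by group⟩
        · rintro ⟨w, hw, hwe⟩
          refine ⟨n⁻¹ * w * n, ?_, ?_⟩
          · apply (hn _).2
            have : n * (n⁻¹ * w * n) * n⁻¹ = w := by group
            rw [this]; exact hw
          · have e : y = (g * n * g⁻¹)⁻¹ * (g * n * g⁻¹ * y * (g * n * g⁻¹)⁻¹) * (g * n * g⁻¹) := by group
            rw [e, ← hwe]; group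
    rw [this]
    exact (Nat.card_congr ((MulAut.conj g).subgroupMap _).toEquiv)
  · unfold nC
    have : Subgroup.centralizer ((Q : Subgroup X) : Set X) =
        (Subgroup.centralizer ((P : Subgroup X) : Set X)).map (MulAut.conj g).toMonoidHom := by
      rw [hQ]
      ext x
      simp only [Subgroup.mem_centralizer_iff, Subgroup.mem_map, MulEquiv.coe_toMonoidHom, MulAut.conj_apply,
        SetLike.mem_coe]
      constructor
      · intro h
        refine ⟨g⁻¹ * x * g, ?_, by group⟩
        intro y hy
        have := h (g * y * g⁻¹) ⟨y, hy, rfl⟩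
        calc y * (g⁻¹ * x * g) = g⁻¹ * (g * y * g⁻¹ * x) * g := by group
          _ = g⁻¹ * (x * (g * y * g⁻¹)) * g := by rw [this]
          _ = g⁻¹ * x * g * y := by group
      · rintro ⟨n, hn, rfl⟩ y ⟨w, hw, rfl⟩
        have := hn w hw
        calc g * w * g⁻¹ * (g * n * g⁻¹) = g * (w * n) * g⁻¹ := by group
          _ = g * (n * w) * g⁻¹ := by rw [this]
          _ = g * n * g⁻¹ * (g * w * g⁻¹) := by group
    rw [this]
    exact (Nat.card_congr ((MulAut.conj g).subgroupMap _).toEquiv)

/-- T7 -/
theorem sum_orders_le (s : Finset ℕ) : ∑ m ∈ s, nO X m ≤ Nat.card X := by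
  classical
  have : Fintype X := Fintype.ofFinite X
  have h : ∀ m, nO X m = (Finset.univ.filter (fun x : X => orderOf x = m)).card := by
    intro m
    rw [nO, Nat.card_eq_fintype_card, Fintype.card_subtype]
  simp only [h]
  rw [← Finset.card_biUnion]
  · rw [Nat.card_eq_fintype_card]
    exact Finset.card_le_univ _
  · intro a _ b _ hab
    rw [Function.onFun, Finset.disjoint_left]
    intro x hx hx'
    rw [Finset.mem_filter] at hx hx'
    exact hab (hx.2.symm.trans hx'.2)

end Cfsg.Agent.Lib.Helper70.J1O
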