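import Cfsg.Agent.Lib.Helper70.J1O.Defs
import Cfsg.Agent.Lib.Helper70.J1O.Tk1

set_option autoImplicit false

namespace Cfsg.Agent.Lib.Helper70.J1O

universe u

variable {X : Type u} [Group X] [Finite X]

/-- counting elements of order `m` through a family of cyclic subgroups. -/
theorem count_aux {T : Type*} [Finite T] (m : ℕ) (K : T → Subgroup X) (hcyc : ∀ t, IsCyclic (K t))
    (hm : ∀ t, m ∣ Nat.card (K t))
    (huniq : ∀ x : X, orderOf x = m → ∃! t, x ∈ K t) :
    nO X m = Nat.card T * Nat.totient m := by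
  classical
  have := Fintype.ofFinite T
  have hfib : ∀ t, Nat.card {a : K t // orderOf a = m} = Nat.totient m := by
    intro t
    have := Fintype.ofFinite (K t)
    have := hcyc t
    have h1 := IsCyclic.card_orderOf_eq_totient (α := K t) (d := m)
      (by rw [← Nat.card_eq_fintype_card]; exact hm t)
    rw [Nat.card_eq_fintype_card, Fintype.card_subtype]
    exact h1
  let gmap : (Σ t, {a : K t // orderOf a = m}) → {x : X // orderOf x = m} :=
    fun s => ⟨(s.2.1 : X), by rw [Subgroup.orderOf_coe]; exact s.2.2⟩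
  have hbij : Function.Bijective gmap := by
    constructor
    · rintro ⟨t, ⟨a, ha⟩⟩ ⟨t', ⟨a', ha'⟩⟩ h
      have h1 : (a : X) = (a' : X) := congrArg Subtype.val h
      have hoa : orderOf (a : X) = m := by rw [Subgroup.orderOf_coe]; exact ha
      have htt : t = t' := (huniq (a : X) hoa).unique a.2 (h1 ▸ a'.2)
      subst htt
      have : a = a' := Subtype.ext h1
      subst this
      rfl
    · rintro ⟨x, hx⟩
      obtain ⟨t, ht, -⟩ := huniq x hx
      exact ⟨⟨t, ⟨⟨x, ht⟩, by rw [← Subgroup.orderOf_coe]; exact hx⟩⟩, rfl⟩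
  unfold nO
  rw [← Nat.card_congr (Equiv.ofBijective gmap hbij), Nat.card_sigma]
  simp only [hfib, Finset.sum_const, Finset.card_univ, smul_eq_mul, Nat.card_eq_fintype_card]

theorem card_syl_eq (p : ℕ) [Fact p.Prime] (P S : Sylow p X) : Nat.card S = Nat.card P := by
  rw [S.card_eq_multiplicity, P.card_eq_multiplicity]

/-- T5 -/
theorem card_order_p (p : ℕ) [Fact p.Prime] (P : Sylow p X) (hP : Nat.card P = p) :
    nO X p = Nat.card (Sylow p X) * (p - 1) := by
  have hpp : p.Prime := Fact.out
  have hS : ∀ S : Sylow p X, Nat.card S = p := fun S => (card_syl_eq p P S).trans hP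
  rw [← Nat.totient_prime hpp]
  apply count_aux p (fun S : Sylow p X => (S : Subgroup X))
  · intro S
    exact isCyclic_of_prime_card (hS S)
  · intro S
    exact (hS S).symm ▸ dvd_rfl
  · intro x hx
    have hz : IsPGroup p (Subgroup.zpowers x) := by
      apply IsPGroup.of_card (n := 1)
      rw [Nat.card_zpowers, hx, pow_one]
    obtain ⟨S, hSx⟩ := hz.exists_le_sylow
    have heq : ∀ S' : Sylow p X, x ∈ (S' : Subgroup X) → (S' : Subgroup X) = Subgroup.zpowers x := by
      intro S' hS'
      symm
      apply Subgroup.eq_of_le_of_card_ge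
      · rw [Subgroup.zpowers_le]; exact hS'
      · rw [Nat.card_zpowers, hx]; exact (hS S').le
    refine ⟨S, hSx (Subgroup.mem_zpowers x), ?_⟩
    intro S' hS'
    apply Sylow.ext
    rw [heq S' hS', heq S (hSx (Subgroup.mem_zpowers x))]

end Cfsg.Agent.Lib.Helper70.J1O
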