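import Cfsg.Agent.Lib.Helper70.J1O.Defs
import Cfsg.Agent.Lib.Helper70.J1O.Tk1
import Cfsg.Agent.Lib.Helper70.J1O.T5

set_option autoImplicit false

namespace Cfsg.Agent.Lib.Helper70.J1O

universe u

variable {X : Type u} [Group X] [Finite X]

theorem syl_le_cent (p : ℕ) [Fact p.Prime] (S : Sylow p X) (hS : Nat.card S = p) :
    (S : Subgroup X) ≤ Subgroup.centralizer ((S : Subgroup X) : Set X) := by
  have hc : IsCyclic S := isCyclic_of_prime_card hS
  have := hc.isMulCommutative
  intro a ha
  rw [Subgroup.mem_centralizer_iff]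
  intro b hb
  have := mul_comm' (⟨b, hb⟩ : S) ⟨a, ha⟩
  exact congrArg Subtype.val this

/-- T6 -/
theorem card_order_pq (p q : ℕ) [Fact p.Prime] [Fact q.Prime] (hne : p ≠ q) (P : Sylow p X)
    (hP : Nat.card P = p) (hC : nC P = p * q) :
    nO X (p * q) = Nat.card (Sylow p X) * ((p - 1) * (q - 1)) := by
  have hpp : p.Prime := Fact.out
  have hqp : q.Prime := Fact.out
  have hcop : Nat.Coprime p q := (Nat.coprime_primes hpp hqp).2 hne
  have hS : ∀ S : Sylow p X, Nat.card S = p := fun S => (card_syl_eq p P S).trans hP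
  have hK : ∀ S : Sylow p X,
      Nat.card (Subgroup.centralizer ((S : Subgroup X) : Set X)) = p * q := by
    intro S
    have := (nN_eq p S P).2
    unfold nC at this hC
    rw [this, hC]
  have htot : Nat.totient (p * q) = (p - 1) * (q - 1) := by
    rw [Nat.totient_mul hcop, Nat.totient_prime hpp, Nat.totient_prime hqp]
  rw [← htot]
  apply count_aux (p * q) (fun S : Sylow p X => Subgroup.centralizer ((S : Subgroup X) : Set X))
  · intro S
    obtain ⟨s, hs⟩ := exists_prime_orderOf_dvd_card' (G := S) p ((hS S).symm ▸ dvd_rfl)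
    obtain ⟨y, hy⟩ := exists_prime_orderOf_dvd_card'
      (G := Subgroup.centralizer ((S : Subgroup X) : Set X)) q ((hK S).symm ▸ dvd_mul_left q p)
    have hsC : (s : X) ∈ Subgroup.centralizer ((S : Subgroup X) : Set X) :=
      syl_le_cent p S (hS S) s.2
    have hcomm : Commute (⟨(s : X), hsC⟩ : Subgroup.centralizer ((S : Subgroup X) : Set X)) y := by
      apply Subtype.ext
      exact (Subgroup.mem_centralizer_iff.1 y.2 (s : X) s.2)
    have hos : orderOf (⟨(s : X), hsC⟩ : Subgroup.centralizer ((S : Subgroup X) : Set X)) = p := by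
      rw [← Subgroup.orderOf_coe]
      show orderOf (s : X) = p
      rw [Subgroup.orderOf_coe, hs]
    have ho := hcomm.orderOf_mul_eq_mul_orderOf_of_coprime (by rw [hos, hy]; exact hcop)
    rw [hos, hy] at ho
    exact isCyclic_of_orderOf_eq_card _ (ho.trans (hK S).symm)
  · intro S
    exact (hK S).symm ▸ dvd_rfl
  · intro x hx
    have hoxq : orderOf (x ^ q) = p := by
      rw [orderOf_pow_of_dvd hqp.ne_zero (hx ▸ dvd_mul_left q p), hx,
        Nat.mul_div_cancel _ hqp.pos]
    have hz : IsPGroup p (Subgroup.zpowers (x ^ q)) := by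
      apply IsPGroup.of_card (n := 1)
      rw [Nat.card_zpowers, hoxq, pow_one]
    obtain ⟨S, hSx⟩ := hz.exists_le_sylow
    have hSeq : (S : Subgroup X) = Subgroup.zpowers (x ^ q) := by
      symm
      apply Subgroup.eq_of_le_of_card_ge hSx
      rw [Nat.card_zpowers, hoxq]; exact (hS S).le
    have heq : ∀ S' : Sylow p X, x ∈ Subgroup.centralizer ((S' : Subgroup X) : Set X) →
        (S' : Subgroup X) = Subgroup.zpowers (x ^ q) := by
      intro S' hS'
      have hzx : Subgroup.zpowers x = Subgroup.centralizer ((S' : Subgroup X) : Set X) := by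
        apply Subgroup.eq_of_le_of_card_ge
        · rw [Subgroup.zpowers_le]; exact hS'
        · rw [Nat.card_zpowers, hx]; exact (hK S').le
      apply Subgroup.eq_of_le_of_card_ge
      · intro s' hs'
        have h1 : s' ∈ Subgroup.zpowers x := hzx ▸ syl_le_cent p S' (hS S') hs'
        obtain ⟨k, rfl⟩ := Subgroup.mem_zpowers_iff.1 h1
        have h2 : (x ^ k) ^ p = 1 := by
          have h3 := pow_card_eq_one' (G := S') (x := ⟨x ^ k, hs'⟩)
          rw [hS S'] at h3
          exact congrArg Subtype.val h3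
        rw [← zpow_natCast, ← zpow_mul] at h2
        have h4 := orderOf_dvd_iff_zpow_eq_one.2 h2
        rw [hx] at h4
        have h5 : (q : ℤ) ∣ k := by
          have h6 : ((p : ℤ) * q) ∣ p * k := by
            rw [mul_comm (p : ℤ) k]; exact_mod_cast h4
          exact (mul_dvd_mul_iff_left (by exact_mod_cast hpp.ne_zero)).1 h6
        obtain ⟨c, rfl⟩ := h5
        rw [zpow_mul, zpow_natCast]
        exact Subgroup.zpow_mem_zpowers _ _
      · rw [Nat.card_zpowers, hoxq]; exact (hS S').ge
    refine ⟨S, ?_, ?_⟩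
    · show x ∈ Subgroup.centralizer ((S : Subgroup X) : Set X)
      rw [Subgroup.mem_centralizer_iff]
      intro h hh
      have hh' : h ∈ Subgroup.zpowers (x ^ q) := hSeq ▸ hh
      obtain ⟨k, rfl⟩ := Subgroup.mem_zpowers_iff.1 hh'
      have : Commute ((x ^ q) ^ k) x := ((Commute.refl x).pow_left q).zpow_left k
      exact this
    · intro S' hS'
      apply Sylow.ext
      rw [heq S' hS', hSeq]

end Cfsg.Agent.Lib.Helper70.J1O
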