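import Cfsg.Agent.Lib.Helper70.J1O.Tk1
import Cfsg.Agent.Lib.Helper70.J1O.Tk2
import Cfsg.Agent.Lib.Helper70.J1O.T5
import Cfsg.Agent.Lib.Helper70.J1O.T6
import Cfsg.Agent.Lib.Helper70.J1O.CE5
import Cfsg.Agent.Lib.Helper70.J1O.CE7
import Cfsg.Agent.Lib.Helper13.J1OArith

set_option autoImplicit false

namespace Cfsg.Agent.Lib.Helper70.J1O

universe u

variable {X : Type u} [Group X] [Finite X]

theorem caseC [IsSimpleGroup X] (hna : ¬ ∀ a b : X, a * b = b * a) (hc : Nat.card X = 87780)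
    (hn : Nat.card (Sylow 19 X) = 210) : False := by
  obtain ⟨P19⟩ : Nonempty (Sylow 19 X) := inferInstance
  obtain ⟨P11⟩ : Nonempty (Sylow 11 X) := inferInstance
  obtain ⟨P7⟩ : Nonempty (Sylow 7 X) := inferInstance
  obtain ⟨P5⟩ : Nonempty (Sylow 5 X) := inferInstance
  have c7 : Nat.card P7 = 7 := card_syl 7 P7 (by rw [hc]; norm_num) (by rw [hc]; norm_num)
  have c5 : Nat.card P5 = 5 := card_syl 5 P5 (by rw [hc]; norm_num) (by rw [hc]; norm_num)
  have c19 : Nat.card P19 = 19 := card_syl 19 P19 (by rw [hc]; norm_num) (by rw [hc]; norm_num)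
  have c11 : Nat.card P11 = 11 := card_syl 11 P11 (by rw [hc]; norm_num) (by rw [hc]; norm_num)
  -- the Sylow 19 data
  obtain ⟨-, d2, d3, d4⟩ := syl_data 19 P19 c19
  rw [hc, hn] at d2
  have hN19 : nN P19 = 418 := by omega
  obtain ⟨e, e1, e2, e3⟩ := burnside hna 19 P19 c19
  rw [hN19] at e3
  have hC19 : nC P19 = 209 := by
    have he := Nat.le_of_dvd (by norm_num) e2
    have he' : e ≤ 18 := by omega
    interval_cases e <;> omega
  -- the Sylow 11 data
  have k19 : 19 ∣ nC P11 := cross 19 11 P19 P11 c19 c11 (by rw [hN19]; norm_num) (by norm_num) (by norm_num)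
  obtain ⟨f1, f2, f3, f4⟩ := syl_data 11 P11 c11
  rw [hc] at f2
  have g11 := nsyl_ge hna (by rw [hc]; norm_num) 11 (by rw [hc]; norm_num)
  have k19' : 19 ∣ nN P11 := k19.trans f4
  have h11 : Nat.card (Sylow 11 X) = 210 ∧ nN P11 = 418 := by
    rcases Cfsg.Agent.Lib.Helper13.J1O.n11_arith _ _ _ f1 f2 f3 f4 g11 with ⟨a, b⟩ | ⟨a, b⟩ | ⟨a, b⟩
    · rw [b] at k19'; omega
    · exact ⟨a, b⟩
    · rw [b] at k19'; omega
  have hd11 : nC P11 ∣ 418 := h11.2 ▸ f4
  have n5 : ¬ 5 ∣ nC P11 := fun h => by have := h.trans hd11; omega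
  have n7 : ¬ 7 ∣ nC P11 := fun h => by have := h.trans hd11; omega
  obtain ⟨s5, t5⟩ := ce5 hna hc P19 P11 P5 (by rw [hC19]; norm_num) n5
  have s7 := ce7 hna hc P19 P11 P5 (by rw [hC19]; norm_num) n7 (by rw [t5]; norm_num)
  -- counting
  have o19 := card_order_p 19 P19 c19
  have o209 := card_order_pq 19 11 (by norm_num) P19 c19 (by rw [hC19])
  have o11 := card_order_p 11 P11 c11
  have o5 := card_order_p 5 P5 c5
  have o15 := card_order_pq 5 3 (by norm_num) P5 c5 (by rw [t5])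
  have o7 := card_order_p 7 P7 c7
  have hsum := sum_orders_le (X := X) ({19, 209, 11, 5, 15, 7} : Finset ℕ)
  rw [Finset.sum_insert (by decide), Finset.sum_insert (by decide), Finset.sum_insert (by decide),
    Finset.sum_insert (by decide), Finset.sum_insert (by decide), Finset.sum_singleton, hc] at hsum
  rw [hn] at o19 o209
  rw [h11.1] at o11
  rw [s5] at o5 o15
  rw [s7] at o7
  norm_num at o19 o209 o11 o5 o15 o7
  omega

end Cfsg.Agent.Lib.Helper70.J1O
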