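import Mathlib

set_option autoImplicit false

namespace Cfsg.Agent.Lib.Helper70.J1O

universe u

instance fact3 : Fact (Nat.Prime 3) := ⟨by norm_num⟩
instance fact5 : Fact (Nat.Prime 5) := ⟨by norm_num⟩
instance fact7 : Fact (Nat.Prime 7) := ⟨by norm_num⟩
instance fact11 : Fact (Nat.Prime 11) := ⟨by norm_num⟩
instance fact19 : Fact (Nat.Prime 19) := ⟨by norm_num⟩

/-- all Sylow 19-subgroups are normal -/
def N19 (X : Type u) [Group X] : Prop := ∀ P : Sylow 19 X, (P : Subgroup X).Normal

/-- order of the normaliser of a Sylow subgroup -/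
noncomputable def nN {X : Type u} [Group X] {p : ℕ} (P : Sylow p X) : ℕ :=
  Nat.card (Subgroup.normalizer ((P : Subgroup X) : Set X))

/-- order of the centraliser of a Sylow subgroup -/
noncomputable def nC {X : Type u} [Group X] {p : ℕ} (P : Sylow p X) : ℕ :=
  Nat.card (Subgroup.centralizer ((P : Subgroup X) : Set X))

/-- number of elements of order `m` -/
noncomputable def nO (X : Type u) [Group X] (m : ℕ) : ℕ := Nat.card {x : X // orderOf x = m}

end Cfsg.Agent.Lib.Helper70.J1O
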