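import Cfsg.Agent.Lib.Helper70.J1O.Defs

/-! Ladder J1O, rung L1: an element of order dividing 19 centralises a normal subgroup of order dividing 9240. -/

set_option autoImplicit false

namespace Cfsg.Agent.Lib.Helper70.J1O

universe u

open scoped Pointwise

variable {X : Type u} [Group X] [Finite X]

theorem l1_pp (r k : ℕ) (hr : r.Prime) (h : r ^ k ∣ 9240) : r ^ k < 19 := by
  rcases Nat.eq_zero_or_pos k with rfl | hk
  · norm_num
  have h1 : r ∣ 9240 := (dvd_pow_self r hk.ne').trans h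
  have h2 : r = 2 ∨ r = 3 ∨ r = 5 ∨ r = 7 ∨ r = 11 := by
    have e : (9240 : ℕ) = 2 * 2 * 2 * 3 * 5 * 7 * 11 := by norm_num
    rw [e] at h1
    simp only [hr.dvd_mul] at h1
    have p2 := Nat.prime_dvd_prime_iff_eq hr (by norm_num : Nat.Prime 2)
    have p3 := Nat.prime_dvd_prime_iff_eq hr (by norm_num : Nat.Prime 3)
    have p5 := Nat.prime_dvd_prime_iff_eq hr (by norm_num : Nat.Prime 5)
    have p7 := Nat.prime_dvd_prime_iff_eq hr (by norm_num : Nat.Prime 7)
    have p11 := Nat.prime_dvd_prime_iff_eq hr (by norm_num : Nat.Prime 11)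
    rw [p2, p3, p5, p7, p11] at h1
    tauto
  rcases h2 with rfl | rfl | rfl | rfl | rfl
  · have : k ≤ 3 := by
      by_contra hc
      have : 2 ^ 4 ∣ 9240 := (pow_dvd_pow 2 (by omega)).trans h
      norm_num at this
    interval_cases k <;> norm_num
  · have : k ≤ 1 := by
      by_contra hc
      have : 3 ^ 2 ∣ 9240 := (pow_dvd_pow 3 (by omega)).trans h
      norm_num at this
    interval_cases k <;> norm_num
  · have : k ≤ 1 := by
      by_contra hc
      have : 5 ^ 2 ∣ 9240 := (pow_dvd_pow 5 (by omega)).trans h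
      norm_num at this
    interval_cases k <;> norm_num
  · have : k ≤ 1 := by
      by_contra hc
      have : 7 ^ 2 ∣ 9240 := (pow_dvd_pow 7 (by omega)).trans h
      norm_num at this
    interval_cases k <;> norm_num
  · have : k ≤ 1 := by
      by_contra hc
      have : 11 ^ 2 ∣ 9240 := (pow_dvd_pow 11 (by omega)).trans h
      norm_num at this
    interval_cases k <;> norm_num

theorem l1_comm (R : Subgroup X) (hR : Nat.card R < 19) (x : X) (hx : x ^ 19 = 1)
    (hxR : ∀ n ∈ R, x * n * x⁻¹ ∈ R) (n : X) (hn : n ∈ R) : n * x = x * n := by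
  have hpow : ∀ i : ℕ, x ^ i * n * (x ^ i)⁻¹ ∈ R := by
    intro i
    induction i with
    | zero => simpa using hn
    | succ i ih =>
      have h := hxR _ ih
      have e : x ^ (i + 1) * n * (x ^ (i + 1))⁻¹ = x * (x ^ i * n * (x ^ i)⁻¹) * x⁻¹ := by
        rw [pow_succ']
        group
      rw [e]
      exact h
  have : Fintype R := Fintype.ofFinite R
  obtain ⟨i, j, hij, he⟩ := Fintype.exists_ne_map_eq_of_card_lt
    (fun i : Fin 19 => (⟨x ^ (i : ℕ) * n * (x ^ (i : ℕ))⁻¹, hpow i⟩ : R))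
    (by rw [Fintype.card_fin, ← Nat.card_eq_fintype_card]; exact hR)
  have he' : x ^ (i : ℕ) * n * (x ^ (i : ℕ))⁻¹ = x ^ (j : ℕ) * n * (x ^ (j : ℕ))⁻¹ :=
    congrArg Subtype.val he
  have hd : x ^ (-(j : ℤ) + (i : ℤ)) ∈ Subgroup.centralizer {n} := by
    rw [Subgroup.mem_centralizer_singleton_iff, zpow_add, zpow_neg, zpow_natCast, zpow_natCast]
    symm
    calc n * ((x ^ (j : ℕ))⁻¹ * x ^ (i : ℕ))
        = (x ^ (j : ℕ))⁻¹ * (x ^ (j : ℕ) * n * (x ^ (j : ℕ))⁻¹) * x ^ (i : ℕ) := by group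
      _ = (x ^ (j : ℕ))⁻¹ * (x ^ (i : ℕ) * n * (x ^ (i : ℕ))⁻¹) * x ^ (i : ℕ) := by rw [he']
      _ = (x ^ (j : ℕ))⁻¹ * x ^ (i : ℕ) * n := by group
  have hij' : (i : ℕ) ≠ (j : ℕ) := fun h => hij (Fin.ext h)
  have hi := i.2
  have hj := j.2
  have hg : Int.gcd (-(j : ℤ) + (i : ℤ)) 19 = 1 := by
    rw [Int.gcd_eq_natAbs]
    have h19 : Nat.Prime 19 := by norm_num
    apply Nat.Coprime.symm
    rw [show Int.natAbs 19 = 19 from rfl, h19.coprime_iff_not_dvd]
    apply Nat.not_dvd_of_pos_of_lt <;> omega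
  have hb := Int.gcd_eq_gcd_ab (-(j : ℤ) + (i : ℤ)) 19
  rw [hg] at hb
  have hx1 : x = (x ^ (-(j : ℤ) + (i : ℤ))) ^ (Int.gcdA (-(j : ℤ) + (i : ℤ)) 19) := by
    have h19 : x ^ ((19 : ℤ) * Int.gcdB (-(j : ℤ) + (i : ℤ)) 19) = 1 := by
      rw [zpow_mul]
      have : x ^ (19 : ℤ) = 1 := by exact_mod_cast hx
      rw [this, one_zpow]
    calc x = x ^ (((1 : ℕ) : ℤ)) := by simp
      _ = _ := by rw [hb, zpow_add, h19, mul_one, zpow_mul]
  have hxm : x ∈ Subgroup.centralizer {n} := by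
    rw [hx1]
    exact Subgroup.zpow_mem _ hd _
  exact (Subgroup.mem_centralizer_singleton_iff.1 hxm).symm

theorem l1_inv (N : Subgroup X) [N.Normal] (hN : Nat.card N ∣ 9240) (x : X) (hx : x ^ 19 = 1)
    (r : ℕ) [Fact r.Prime] :
    ∃ R : Sylow r N, ∀ n : N, n ∈ R → ∀ h : x * (n : X) * x⁻¹ ∈ N, (⟨x * (n : X) * x⁻¹, h⟩ : N) ∈ R := by
  have hg : (ConjAct.toConjAct x) ^ 19 = 1 := by rw [← map_pow, hx, map_one]
  have hZ : IsPGroup 19 (Subgroup.zpowers (ConjAct.toConjAct x)) := by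
    rintro ⟨z, hz⟩
    obtain ⟨m, rfl⟩ := Subgroup.mem_zpowers_iff.1 hz
    refine ⟨1, Subtype.ext ?_⟩
    change (ConjAct.toConjAct x ^ m) ^ (19 ^ 1) = 1
    rw [pow_one, ← zpow_natCast, ← zpow_mul, mul_comm, zpow_mul, zpow_natCast, hg, one_zpow]
  have hnd : ¬ 19 ∣ Nat.card (Sylow r N) := by
    intro h
    obtain ⟨R0⟩ : Nonempty (Sylow r N) := inferInstance
    have h1 : 19 ∣ 9240 :=
      ((h.trans R0.card_dvd_index).trans (Subgroup.index_dvd_card _)).trans hN
    norm_num at h1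
  obtain ⟨R, hR⟩ := hZ.nonempty_fixed_point_of_prime_not_dvd_card (Sylow r N) hnd
  refine ⟨R, fun n hn h => ?_⟩
  have h1 : ConjAct.toConjAct x • R = R :=
    hR ⟨ConjAct.toConjAct x, Subgroup.mem_zpowers _⟩
  have h2 : ConjAct.toConjAct x • n ∈ ConjAct.toConjAct x • (R : Subgroup N) :=
    Subgroup.smul_mem_pointwise_smul n _ _ hn
  rw [← Sylow.pointwise_smul_def, h1] at h2
  have h3 : ConjAct.toConjAct x • n = (⟨x * (n : X) * x⁻¹, h⟩ : N) := by
    apply Subtype.ext
    rw [ConjAct.Subgroup.val_conj_smul, ConjAct.toConjAct_smul]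
  rw [← h3]
  exact h2

/-- L1 -/
theorem cent_of_coprime (N : Subgroup X) [N.Normal] (hN : Nat.card N ∣ 9240) (x : X) (hx : x ^ 19 = 1) :
    x ∈ Subgroup.centralizer (N : Set X) := by
  set C : Subgroup N := (Subgroup.centralizer {x}).subgroupOf N with hC
  have key : ∀ r : ℕ, r.Prime → r ^ (Nat.card N).factorization r ∣ Nat.card C := by
    intro r hr
    have : Fact r.Prime := ⟨hr⟩
    obtain ⟨R, hR⟩ := l1_inv N hN x hx r
    have hcard : Nat.card ((R : Subgroup N).map N.subtype) = Nat.card R :=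
      Subgroup.card_map_of_injective N.subtype_injective
    have hlt : Nat.card ((R : Subgroup N).map N.subtype) < 19 := by
      rw [hcard, R.card_eq_multiplicity]
      apply l1_pp _ _ hr
      exact (Nat.ordProj_dvd _ _).trans hN
    have hle : (R : Subgroup N) ≤ C := by
      intro n hn
      rw [hC, Subgroup.mem_subgroupOf, Subgroup.mem_centralizer_singleton_iff]
      refine l1_comm ((R : Subgroup N).map N.subtype) hlt x hx ?_ (n : X) ⟨n, hn, rfl⟩
      rintro _ ⟨m, hm, rfl⟩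
      have hmem : x * (m : X) * x⁻¹ ∈ N := (inferInstance : N.Normal).conj_mem _ m.2 x
      exact ⟨⟨_, hmem⟩, hR m hm hmem, rfl⟩
    rw [← R.card_eq_multiplicity]
    exact Subgroup.card_dvd_of_le hle
  have hdvd : Nat.card N ∣ Nat.card C := by
    rw [← Nat.factorization_le_iff_dvd Nat.card_pos.ne' Nat.card_pos.ne']
    intro r
    by_cases hr : r.Prime
    · exact (hr.pow_dvd_iff_le_factorization Nat.card_pos.ne').1 (key r hr)
    · rw [Nat.factorization_eq_zero_of_not_prime _ hr]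
      exact Nat.zero_le _
  have htop : C = ⊤ :=
    Subgroup.eq_top_of_card_eq C (Nat.dvd_antisymm (Subgroup.card_subgroup_dvd_card C) hdvd)
  rw [Subgroup.mem_centralizer_iff]
  intro n hn
  have h1 : (⟨n, hn⟩ : N) ∈ C := htop ▸ Subgroup.mem_top _
  rw [hC, Subgroup.mem_subgroupOf, Subgroup.mem_centralizer_singleton_iff] at h1
  exact h1

end Cfsg.Agent.Lib.Helper70.J1O
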