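import Cfsg.Agent.Lib.Helper70.J1O.L1

/-! Ladder J1O, rung STEP: `N19` passes to extensions (for orders dividing 175560). -/

set_option autoImplicit false

namespace Cfsg.Agent.Lib.Helper70.J1O

universe u

open scoped Pointwise

variable {X : Type u} [Group X] [Finite X]

theorem step_pow (hX : Nat.card X ∣ 175560) (P : Sylow 19 X) (x : X) (hx : x ∈ P) : x ^ 19 = 1 := by
  have hk : (Nat.card X).factorization 19 ≤ 1 := by
    by_contra hc
    have h1 : 19 ^ 2 ∣ 175560 :=
      ((pow_dvd_pow 19 (by omega)).trans (Nat.ordProj_dvd (Nat.card X) 19)).trans hX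
    norm_num at h1
  have hc : Nat.card P ∣ 19 := by
    rw [P.card_eq_multiplicity]
    exact (pow_dvd_pow 19 hk).trans (by norm_num)
  have h1 : (⟨x, hx⟩ : P) ^ Nat.card P = 1 := pow_card_eq_one'
  have h2 : x ^ Nat.card P = 1 := congrArg Subtype.val h1
  obtain ⟨c, hc⟩ := hc
  rw [hc, pow_mul, h2, one_pow]

theorem step_normal (h : ∀ P Q : Sylow 19 X, P = Q) : N19 X := by
  intro P
  rw [← Subgroup.normalizer_eq_top_iff, eq_top_iff]
  intro g _
  exact Sylow.smul_eq_iff_mem_normalizer.1 (h _ _)

theorem step_unique {Y : Type u} [Group Y] [Finite Y] (h : N19 Y) (P Q : Sylow 19 Y) : P = Q := by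
  have : Subsingleton (Sylow 19 Y) := (Sylow.unique_of_normal P (h P)).instSubsingleton
  exact Subsingleton.elim _ _

/-- STEP -/
theorem step (hX : Nat.card X ∣ 175560) (N : Subgroup X) [N.Normal] (h1 : N19 N) (h2 : N19 (X ⧸ N)) :
    N19 X := by
  apply step_normal
  by_cases h19 : 19 ∣ Nat.card N
  · -- every Sylow 19-subgroup lies in `N`
    have hcop : Nat.Coprime 19 N.index := by
      rw [Nat.Prime.coprime_iff_not_dvd (by norm_num)]
      intro hi
      have h3 : 19 * 19 ∣ 175560 := by
        refine dvd_trans ?_ hX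
        rw [← Subgroup.card_mul_index N]
        exact Nat.mul_dvd_mul h19 hi
      norm_num at h3
    have hle : ∀ P : Sylow 19 X, (P : Subgroup X) ≤ N := by
      intro P x hx
      have e1 : (QuotientGroup.mk' N x) ^ 19 = 1 := by
        rw [← map_pow, step_pow hX P x hx, map_one]
      have e2 : (QuotientGroup.mk' N x) ^ N.index = 1 := by
        rw [Subgroup.index_eq_card]
        exact pow_card_eq_one'
      have e3 := pow_gcd_eq_one.2 ⟨e1, e2⟩
      rw [Nat.Coprime.gcd_eq_one hcop, pow_one] at e3
      exact (QuotientGroup.eq_one_iff x).1 e3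
    intro P Q
    exact Sylow.subtype_injective (hP := hle P) (hQ := hle Q) (step_unique h1 _ _)
  · have hN : Nat.card N ∣ 9240 := by
      have h3 : Nat.card N ∣ 19 * 9240 := (Subgroup.card_subgroup_dvd_card N).trans (by simpa using hX)
      have hc : Nat.Coprime (Nat.card N) 19 :=
        ((Nat.Prime.coprime_iff_not_dvd (by norm_num)).2 h19).symm
      exact hc.dvd_of_dvd_mul_left h3
    have hle : ∀ P Q : Sylow 19 X, (Q : Subgroup X) ≤ P := by
      intro P Q q hq
      have hs : Function.Surjective (QuotientGroup.mk' N) := QuotientGroup.mk'_surjective N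
      have he : P.mapSurjective hs = Q.mapSurjective hs := step_unique h2 _ _
      have hq' : QuotientGroup.mk' N q ∈ (Q.mapSurjective hs : Subgroup (X ⧸ N)) :=
        ⟨q, hq, rfl⟩
      rw [← he] at hq'
      obtain ⟨p, hp, hpq⟩ := hq'
      have hn : p⁻¹ * q ∈ N := by
        rw [← QuotientGroup.eq]
        exact hpq
      have hpc := cent_of_coprime N hN p (step_pow hX P p hp)
      have hcomm : (p⁻¹ * q) * p = p * (p⁻¹ * q) := Subgroup.mem_centralizer_iff.1 hpc _ hn
      have hq19 := step_pow hX Q q hq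
      have hp19 := step_pow hX P p hp
      have hn19 : (p⁻¹ * q) ^ 19 = 1 := by
        have e : q = p * (p⁻¹ * q) := by group
        have hc : Commute p (p⁻¹ * q) := hcomm.symm
        rw [e, hc.mul_pow, hp19, one_mul] at hq19
        exact hq19
      have hnN : (p⁻¹ * q) ^ Nat.card N = 1 := by
        have : (⟨p⁻¹ * q, hn⟩ : N) ^ Nat.card N = 1 := pow_card_eq_one'
        exact congrArg Subtype.val this
      have e3 := pow_gcd_eq_one.2 ⟨hn19, hnN⟩
      have hc : Nat.Coprime 19 (Nat.card N) := (Nat.Prime.coprime_iff_not_dvd (by norm_num)).2 h19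
      rw [Nat.Coprime.gcd_eq_one hc, pow_one] at e3
      have : q = p := by
        rw [inv_mul_eq_one] at e3
        exact e3.symm
      rw [this]
      exact hp
    intro P Q
    exact Sylow.ext (le_antisymm (hle Q P) (hle P Q))

end Cfsg.Agent.Lib.Helper70.J1O
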